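import Cfsg.Agent.SporadicStructure.FieldNine
import Cfsg.Agent.LieClassical.FieldTransfer
import Cfsg.Agent.LieClassical.SUBasic
import Cfsg.Agent.S0280
import Cfsg.Agent.H674.SUTools

/-!
# `12 ≤ k(PSU_4(3))`

Ten explicit matrices over the field with nine elements with different invariants and one element of order five
and one of order seven.
-/

set_option autoImplicit false
open Cfsg

namespace Cfsg.Agent.H93.PsuFourThree

open Matrix Cfsg.Agent.SporadicStructure.FieldNine Cfsg.Agent.H92 Cfsg.Agent.LieClassical Cfsg.Agent.H674.SUTools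

local notation "z" => (K9.mk 0)
local notation "e" => (K9.mk 1)
local notation "m" => (K9.mk 2)
local notation "i" => (K9.mk 3)
local notation "j" => (K9.mk 6)
/-- `1+i`, `-1+i`, `1-i`, `-1-i` -/
local notation "a" => (K9.mk 4)
local notation "b" => (K9.mk 5)
local notation "c" => (K9.mk 7)
local notation "d" => (K9.mk 8)

/-- the ten matrices -/
def mats : Fin 10 → Matrix (Fin 4) (Fin 4) K9
  | 0 => !![e, z, z, z; z, e, z, z; z, z, e, z; z, z, z, e]
  | 1 => !![m, z, z, z; z, m, z, z; z, z, e, z; z, z, z, e]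
  | 2 => !![a, a, z, z; b, c, z, z; z, z, e, z; z, z, z, e]
  | 3 => !![z, e, z, z; z, z, e, z; e, z, z, z; z, z, z, e]
  | 4 => !![i, z, z, z; z, j, z, z; z, z, e, z; z, z, z, e]
  | 5 => !![z, i, z, z; e, z, z, z; z, z, z, j; z, z, e, z]
  | 6 => !![a, a, z, z; b, c, z, z; z, z, m, z; z, z, z, m]
  | 7 => !![a, a, z, z; b, c, z, z; z, z, d, d; z, z, c, b]
  | 8 => !![z, i, z, z; e, z, z, z; z, z, e, z; z, z, z, i]
  | 9 => !![a, a, z, z; b, c, z, z; z, z, i, z; z, z, z, j]

/-- the scalars -/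
def scs : Fin 4 → K9
  | 0 => e
  | 1 => m
  | 2 => i
  | 3 => j

/-- `(M - c)² (M + c) = 0` -/
def tst (r : K9) (M : Matrix (Fin 4) (Fin 4) K9) : Bool :=
  decide ((M - r • 1) * (M - r • 1) * (M + r • 1) = 0)

/-- the invariants -/
def inv0 (M : Matrix (Fin 4) (Fin 4) K9) : ℕ :=
  K9.code M.trace + 9 * ((decide (M = 1)).toNat + 2 * (decide (M * M = 1)).toNat + 4 * (decide (M * M * M = 1)).toNat +
    8 * (decide ((M * M) * (M * M) = 1)).toNat + 16 * (decide (((M * M) * (M * M)) * ((M * M) * (M * M)) = 1)).toNat +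
    32 * (decide ((M - 1) * (M - 1) = 0)).toNat + 64 * (decide ((M * M * M) * (M * M * M) = 1)).toNat +
    128 * (tst (scs 0) M || tst (scs 1) M || tst (scs 2) M || tst (scs 3) M).toNat)

theorem det_mats (k : Fin 10) : (mats k).det = 1 := by
  revert k; decide +kernel

theorem isom_mats (k : Fin 10) : (mats k)ᵀ * (mats k).map (fun x => x ^ 3) = 1 := by
  revert k; decide +kernel

/-- the table of the invariants -/
def tab : Fin 4 → Fin 10 → ℕ
  | 0 => ![2296, 1962, 2053, 613, 218, 144, 1728, 576, 148, 2]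
  | 1 => ![1964, 1962, 1730, 578, 217, 144, 1728, 576, 152, 1]
  | 2 => ![1371, 1368, 1155, 3, 222, 144, 1152, 0, 149, 6]
  | 3 => ![1374, 1368, 1158, 6, 219, 144, 1152, 0, 151, 3]

theorem inv_tab (s : Fin 4) (l : Fin 10) : inv0 (scs s • mats l) = tab s l := by
  revert s l; decide +kernel

theorem tab_inj (s : Fin 4) (k l : Fin 10) (h : tab 0 k = tab s l) : k = l := by
  revert s k l; decide +kernel

theorem inv_mats (s : Fin 4) (k l : Fin 10) (h : inv0 (mats k) = inv0 (scs s • mats l)) : k = l := by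
  have h0 : mats k = scs 0 • mats k := by
    rw [show scs 0 = 1 from rfl, one_smul]
  rw [h0, inv_tab, inv_tab] at h
  exact tab_inj s k l h

theorem pow_mats (k : Fin 10) : mats k ^ 24 = 1 := by
  revert k; decide +kernel

theorem hK9 : Fintype.card K9 = 3 ^ 2 := K9.card_K9'

theorem isom_mats' (k : Fin 10) : (mats k)ᵀ * (mats k).map (GUOrder.frob hK9) = 1 := isom_mats k

/-- the elements of `SU_4(3)` -/
def elt (k : Fin 10) : Cfsg.SU 4 K9 3 := mkSU hK9 (mats k) (det_mats k) (isom_mats' k)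

/-- conjugation of matrices as a ring isomorphism -/
def cj {P Q : Matrix (Fin 4) (Fin 4) K9} (h1 : P * Q = 1) (h2 : Q * P = 1) :
    Matrix (Fin 4) (Fin 4) K9 ≃+* Matrix (Fin 4) (Fin 4) K9 where
  toFun X := P * X * Q
  invFun X := Q * X * P
  left_inv X := by
    calc Q * (P * X * Q) * P = (Q * P) * X * (Q * P) := by simp only [mul_assoc]
      _ = X := by rw [h2, one_mul, mul_one]
  right_inv X := by
    calc P * (Q * X * P) * Q = (P * Q) * X * (P * Q) := by simp only [mul_assoc]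
      _ = X := by rw [h1, one_mul, mul_one]
  map_mul' X Y := by
    calc P * (X * Y) * Q = P * X * (1 * Y) * Q := by simp only [mul_assoc, one_mul]
      _ = P * X * Q * (P * Y * Q) := by rw [← h2]; simp only [mul_assoc]
  map_add' X Y := by rw [mul_add, add_mul]

theorem cj_apply {P Q : Matrix (Fin 4) (Fin 4) K9} (h1 : P * Q = 1) (h2 : Q * P = 1) (X : Matrix (Fin 4) (Fin 4) K9) :
    cj h1 h2 X = P * X * Q := rfl

theorem inv0_cj {P Q : Matrix (Fin 4) (Fin 4) K9} (h1 : P * Q = 1) (h2 : Q * P = 1) (X : Matrix (Fin 4) (Fin 4) K9) :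
    inv0 (cj h1 h2 X) = inv0 X := by
  have ht : (cj h1 h2 X).trace = X.trace := by
    rw [cj_apply, Matrix.trace_mul_cycle, h2, one_mul]
  have hs : ∀ r : K9, cj h1 h2 (r • 1) = r • 1 := by
    intro r
    rw [cj_apply, mul_smul_comm, mul_one, smul_mul_assoc, h1]
  have e1 : ∀ Y, decide (cj h1 h2 Y = 1) = decide (Y = 1) := fun Y =>
    decide_eq_decide.2 (map_eq_one_iff _ (cj h1 h2).injective)
  have e0 : ∀ Y, decide (cj h1 h2 Y = 0) = decide (Y = 0) := fun Y =>
    decide_eq_decide.2 (map_eq_zero_iff _ (cj h1 h2).injective)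
  have et : ∀ r, tst r (cj h1 h2 X) = tst r X := by
    intro r
    unfold tst
    rw [← e0 ((X - r • 1) * (X - r • 1) * (X + r • 1)), map_mul, map_mul, map_sub, map_add, hs]
  unfold inv0
  rw [ht, et, et, et, et, ← e1 X, ← e1 (X * X), ← e1 (X * X * X), ← e1 ((X * X) * (X * X)),
    ← e1 (((X * X) * (X * X)) * ((X * X) * (X * X))), ← e0 ((X - 1) * (X - 1)),
    ← e1 ((X * X * X) * (X * X * X))]
  simp only [map_mul, map_sub, map_one]

theorem inv0_isConj {x y : Cfsg.SU 4 K9 3} (h : IsConj x y) : inv0 (cm x) = inv0 (cm y) := by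
  obtain ⟨P, Q, h1, h2, h3⟩ := exists_similar h
  rw [h3, ← cj_apply h1 h2, inv0_cj]

theorem scs_surj (r : K9) (hr : r ^ 4 = 1) : ∃ s, r = scs s := by
  revert r; decide +kernel

theorem isConj_elt {k l : Fin 10}
    (h : IsConj (QuotientGroup.mk (elt k) : Cfsg.PSU 4 K9 3) (QuotientGroup.mk (elt l))) : k = l := by
  obtain ⟨g, hg⟩ := isConj_iff.1 h
  obtain ⟨g, rfl⟩ := QuotientGroup.mk_surjective g
  have h2 : (QuotientGroup.mk (elt l) : Cfsg.PSU 4 K9 3) = QuotientGroup.mk (g * elt k * g⁻¹) := hg.symm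
  rw [QuotientGroup.eq, SUBasic.mem_center_SU_iff hK9 (by norm_num)] at h2
  obtain ⟨r, hr, hr2, h3⟩ := h2
  have h4 : IsConj (elt k) (elt l * SUBasic.suScalar 3 r hr hr2) := by
    rw [← h3]
    exact isConj_iff.2 ⟨g, by group⟩
  have h5 := inv0_isConj h4
  obtain ⟨s, rfl⟩ := scs_surj r hr
  have h6 : cm (elt l * SUBasic.suScalar 3 (scs s) hr hr2) = scs s • mats l := by
    rw [map_mul, elt, cm_mkSU, cm_apply, SUBasic.coe_suScalar, Matrix.smul_eq_mul_diagonal]
  rw [h6] at h5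
  exact inv_mats s k l h5

theorem card_psu : Nat.card (Cfsg.PSU 4 K9 3) = 3265920 := by
  have h := Cfsg.Agent.S0280.result hK9 4 (by norm_num)
  have h2 : Nat.gcd 4 (3 + 1) = 4 := by decide
  rw [h2] at h
  have h3 : (3 ^ (4 * (4 - 1) / 2) * ∏ t ∈ Finset.range 4, (if Even t then 3 ^ (t + 1) + 1 else 3 ^ (t + 1) - 1) : ℕ) = 16 * 3265920 := by
    decide
  rw [h3] at h
  omega

theorem twelve_le_K9 : 12 ≤ Nat.card (ConjClasses (Cfsg.PSU 4 K9 3)) := by
  classical
  obtain ⟨x, hx⟩ : KTools.HasOrd (Cfsg.PSU 4 K9 3) 5 :=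
    KTools.hasOrd_prime (by norm_num) (by rw [card_psu]; norm_num)
  obtain ⟨y, hy⟩ : KTools.HasOrd (Cfsg.PSU 4 K9 3) 7 :=
    KTools.hasOrd_prime (by norm_num) (by rw [card_psu]; norm_num)
  have hp : ∀ k, (QuotientGroup.mk (elt k) : Cfsg.PSU 4 K9 3) ^ 24 = 1 := by
    intro k
    have h1 : elt k ^ 24 = 1 := by
      rw [← cm_pow_eq_one_iff, elt, cm_mkSU]
      exact pow_mats k
    rw [← QuotientGroup.mk_pow, h1]
    rfl
  have hne : ∀ (u : Cfsg.PSU 4 K9 3) (n : ℕ), orderOf u = n → ¬ n ∣ 24 → ∀ k, ¬ IsConj u (QuotientGroup.mk (elt k)) := by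
    intro u n hu hn k h
    have h1 := KTools.orderOf_eq_of_isConj h
    rw [hu] at h1
    exact hn (h1 ▸ orderOf_dvd_of_pow_eq_one (hp k))
  have hxy : ¬ IsConj x y := by
    intro h
    have h1 := KTools.orderOf_eq_of_isConj h
    omega
  have h1 := KTools.card_le_of_inj (G := Cfsg.PSU 4 K9 3) (ι := Option (Option (Fin 10)))
    (fun o => o.elim x (fun o => o.elim y fun k => QuotientGroup.mk (elt k))) ?_
  · simpa using h1
  · rintro (_ | _ | k) (_ | _ | l) hij
    · rfl
    · exact absurd hij hxy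
    · exact absurd hij (hne x 5 hx (by norm_num) l)
    · exact absurd hij.symm hxy
    · rfl
    · exact absurd hij (hne y 7 hy (by norm_num) l)
    · exact absurd hij.symm (hne x 5 hx (by norm_num) k)
    · exact absurd hij.symm (hne y 7 hy (by norm_num) k)
    · exact congrArg _ (congrArg _ (isConj_elt hij))

/-- `12 ≤ k(PSU_4(3))` -/
theorem twelve_le (F : Type) [Field F] [Fintype F] (hF : Fintype.card F = 3 ^ 2) :
    12 ≤ Nat.card (ConjClasses (Cfsg.PSU 4 F 3)) := by
  have e9 : F ≃+* K9 := FiniteField.ringEquivOfCardEq (hF.trans hK9.symm)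
  rw [KTools.card_classes_congr (FieldTransfer.psuCongr 4 3 e9)]
  exact twelve_le_K9

end Cfsg.Agent.H93.PsuFourThree
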